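import Mathlib.GroupTheory.Nilpotent
import Mathlib.GroupTheory.PGroup
import Mathlib.Data.Complex.Basic

/-! A sign-reversing involution on normal chains of `p`-subgroups. -/

set_option autoImplicit false

namespace Cfsg.Agent.KR

open Subgroup

variable {G : Type*} [Group G]

/-- Normal chains of nontrivial `p`-subgroups (possibly empty). -/
def Ch (p : ℕ) (s : Finset (Subgroup G)) : Prop :=
  (∀ Q ∈ s, ∀ R ∈ s, Q ≤ R ∨ R ≤ Q) ∧ (∀ Q ∈ s, Q ≠ ⊥ ∧ IsPGroup p Q) ∧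
    ∀ Q ∈ s, ∀ R ∈ s, R ≤ normalizer (Q : Set G)

/-- The stabiliser of a chain. -/
abbrev NS (s : Finset (Subgroup G)) : Subgroup G := ⨅ Q ∈ s, normalizer (Q : Set G)

theorem mem_NS {s : Finset (Subgroup G)} {g : G} :
    g ∈ NS s ↔ ∀ Q ∈ s, g ∈ normalizer (Q : Set G) := by simp [NS, mem_iInf]

theorem exists_top {s : Finset (Subgroup G)} (h : ∀ Q ∈ s, ∀ R ∈ s, Q ≤ R ∨ R ≤ Q)
    (h0 : s.Nonempty) : ∃ T ∈ s, ∀ Q ∈ s, Q ≤ T := by
  obtain ⟨T, hT, h1⟩ := s.exists_maximal h0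
  exact ⟨T, hT, fun Q hQ => (h Q hQ T hT).elim id (h1 hQ)⟩

/-- The top of the chain joined with `u`. -/
def TT (u : G) (s : Finset (Subgroup G)) : Subgroup G := (⨆ Q ∈ s, Q) ⊔ zpowers u

/-- The subgroup that is toggled. -/
def RR (u : G) (s : Finset (Subgroup G)) : Subgroup G :=
  (⨆ Q ∈ s, ⨆ _ : u ∉ Q, Q) ⊔ closure {y | ∃ t ∈ TT u s, t * u * t⁻¹ = y}

theorem le_TT {u : G} {s : Finset (Subgroup G)} {Q : Subgroup G} (h : Q ∈ s) : Q ≤ TT u s :=
  (le_iSup₂_of_le (f := fun Q (_ : Q ∈ s) => Q) Q h le_rfl).trans le_sup_left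

theorem mem_TT (u : G) (s : Finset (Subgroup G)) : u ∈ TT u s :=
  mem_sup_right (mem_zpowers u)

theorem TT_le {u : G} {s : Finset (Subgroup G)} {X : Subgroup G} (h : ∀ Q ∈ s, Q ≤ X)
    (hu : u ∈ X) : TT u s ≤ X := sup_le (iSup₂_le h) (zpowers_le.2 hu)

theorem le_RR {u : G} {s : Finset (Subgroup G)} {Q : Subgroup G} (h : Q ∈ s) (hu : u ∉ Q) :
    Q ≤ RR u s :=
  (le_iSup₂_of_le (f := fun Q (_ : Q ∈ s) => ⨆ _ : u ∉ Q, Q) Q h
    (le_iSup_of_le hu le_rfl)).trans le_sup_left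

theorem conj_RR {u t : G} {s : Finset (Subgroup G)} (h : t ∈ TT u s) : t * u * t⁻¹ ∈ RR u s :=
  mem_sup_right (subset_closure ⟨t, h, rfl⟩)

theorem mem_RR (u : G) (s : Finset (Subgroup G)) : u ∈ RR u s := by
  simpa using conj_RR (one_mem (TT u s))

theorem RR_le {u : G} {s : Finset (Subgroup G)} {X : Subgroup G} (h : ∀ Q ∈ s, u ∉ Q → Q ≤ X)
    (hu : ∀ t ∈ TT u s, t * u * t⁻¹ ∈ X) : RR u s ≤ X :=
  sup_le (iSup₂_le fun Q hQ => iSup_le (h Q hQ))
    ((closure_le _).2 (by rintro _ ⟨t, ht, rfl⟩; exact hu t ht))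

theorem RR_le_TT (u : G) (s : Finset (Subgroup G)) : RR u s ≤ TT u s :=
  RR_le (fun _ h _ => le_TT h) fun _ h => mul_mem (mul_mem h (mem_TT u s)) (inv_mem h)

theorem RR_congr {u : G} {s s' : Finset (Subgroup G)} (h : ∀ Q, u ∉ Q → (Q ∈ s ↔ Q ∈ s'))
    (hT : TT u s = TT u s') : RR u s = RR u s' :=
  le_antisymm (RR_le (fun Q hQ hu => le_RR ((h Q hu).1 hQ) hu) fun _ ht => conj_RR (hT ▸ ht))
    (RR_le (fun Q hQ hu => le_RR ((h Q hu).2 hQ) hu) fun _ ht => conj_RR (hT ▸ ht))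

variable [Finite G]

theorem nrm_RR {u g : G} {s : Finset (Subgroup G)} (hg : g ∈ NS s)
    (h : g ∈ TT u s ∨ g ∈ centralizer {u}) : g ∈ normalizer (RR u s : Set G) := by
  have h1 : ∀ Q ∈ s, ∀ y ∈ Q, g * y * g⁻¹ ∈ Q := fun Q hQ y hy => (mem_NS.1 hg Q hQ y).1 hy
  refine mem_normalizer_fintype fun y hy => ?_
  refine RR_le (X := (RR u s).comap (MulAut.conj g).toMonoidHom)
    (fun Q hQ hu y hy => le_RR hQ hu (h1 Q hQ y hy)) (fun t ht => ?_) hy
  change g * (t * u * t⁻¹) * g⁻¹ ∈ RR u s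
  rcases h with h | h
  · convert conj_RR (mul_mem h ht) using 1
    group
  · have h2 : g * u * g⁻¹ = u := by rw [← h u rfl, mul_inv_cancel_right]
    have h3 : g * t * g⁻¹ ∈ TT u s := TT_le (X := (TT u s).comap (MulAut.conj g).toMonoidHom)
      (fun Q hQ y hy => le_TT hQ (h1 Q hQ y hy)) (by
        change g * u * g⁻¹ ∈ TT u s
        rw [h2]; exact mem_TT u s) ht
    convert conj_RR h3 using 1
    conv_rhs => rw [← h2]
    group

variable {p : ℕ} [Fact p.Prime] {u : G} (hu : IsPGroup p (zpowers u)) (hu1 : u ≠ 1)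
  {s : Finset (Subgroup G)} (hs : Ch p s) (hN : u ∈ NS s)
include hs hN

omit [Finite G] [Fact p.Prime] in
theorem TT_le_NS : TT u s ≤ NS s :=
  TT_le (fun R hR _ hg => mem_NS.2 fun Q hQ => hs.2.2 Q hQ R hR hg) hN

omit [Finite G] [Fact p.Prime] in
include hu in
theorem pg_TT : IsPGroup p (TT u s) := by
  rcases s.eq_empty_or_nonempty with rfl | h0
  · exact hu.to_le (TT_le (by simp) (mem_zpowers u))
  obtain ⟨T, hT, h1⟩ := exists_top hs.1 h0
  exact ((hs.2.1 T hT).2.to_sup_of_normal_left' hu (zpowers_le.2 (mem_NS.1 hN T hT))).to_le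
    (TT_le (fun Q hQ => (h1 Q hQ).trans le_sup_left) (mem_sup_right (mem_zpowers u)))

omit [Fact p.Prime] in
include hu hu1 in
theorem ch_insert [DecidableEq (Subgroup G)] : Ch p (insert (RR u s) s) := by
  have h1 : ∀ Q ∈ s, Q ≤ RR u s ∨ RR u s ≤ Q := fun Q hQ => by
    by_cases h : u ∈ Q
    · exact Or.inr (RR_le (fun R hR h2 => (hs.1 R hR Q hQ).resolve_right fun h3 => h2 (h3 h))
        fun t ht => (mem_NS.1 (TT_le_NS hs hN ht) Q hQ u).1 h)
    · exact Or.inl (le_RR hQ h)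
  have h2 : TT u s ≤ normalizer (RR u s : Set G) := fun g hg =>
    nrm_RR (TT_le_NS hs hN hg) (Or.inl hg)
  refine ⟨?_, ?_, ?_⟩ <;> simp only [Finset.forall_mem_insert]
  · exact ⟨⟨Or.inl le_rfl, fun Q hQ => (h1 Q hQ).symm⟩, fun Q hQ => ⟨h1 Q hQ, hs.1 Q hQ⟩⟩
  · exact ⟨⟨fun h => hu1 (mem_bot.1 (h ▸ mem_RR u s)), (pg_TT hu hs hN).to_le (RR_le_TT u s)⟩,
      hs.2.1⟩
  · exact ⟨⟨le_normalizer, fun Q hQ => (le_TT hQ).trans h2⟩, fun Q hQ =>
      ⟨fun g hg => mem_NS.1 (TT_le_NS hs hN (RR_le_TT u s hg)) Q hQ, hs.2.2 Q hQ⟩⟩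

include hu in
theorem TT_erase [DecidableEq (Subgroup G)] : TT u (s.erase (RR u s)) = TT u s := by
  have h1 : TT u (s.erase (RR u s)) ≤ TT u s :=
    TT_le (fun Q hQ => le_TT (Finset.mem_of_mem_erase hQ)) (mem_TT u s)
  refine le_antisymm h1 (subgroupOf_eq_top.1 ?_)
  by_contra h
  obtain ⟨M, hM, h2⟩ := (eq_top_or_exists_le_coatom _).resolve_left h
  haveI := (pg_TT hu hs hN).isNilpotent
  haveI := NormalizerCondition.normal_of_coatom M Group.normalizerCondition_of_isNilpotent hM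
  have h3 : TT u (s.erase (RR u s)) ≤ M.map (TT u s).subtype := fun g hg =>
    ⟨⟨g, h1 hg⟩, h2 hg, rfl⟩
  have h4 : RR u s ≤ M.map (TT u s).subtype := RR_le
    (fun Q hQ h5 => (le_TT (Finset.mem_erase.2 ⟨fun e : Q = RR u s => h5 (e.ge (mem_RR u s)), hQ⟩)).trans h3)
    fun t ht => ⟨⟨t, ht⟩ * ⟨u, mem_TT u s⟩ * ⟨t, ht⟩⁻¹,
      this.conj_mem _ (h2 (mem_TT u _)) _, rfl⟩
  have h5 : TT u s ≤ M.map (TT u s).subtype := TT_le (fun Q hQ => by
    by_cases e : Q = RR u s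
    · exact e ▸ h4
    · exact (le_TT (Finset.mem_erase.2 ⟨e, hQ⟩)).trans h3) (h4 (mem_RR u s))
  refine hM.1 (eq_top_iff.2 fun g _ => ?_)
  obtain ⟨y, hy, e⟩ := h5 g.2
  exact Subtype.ext e ▸ hy

omit hs hN

open Classical in
include hu hu1 in
theorem alt_sum (S : Finset (Finset (Subgroup G))) (hS : ∀ s, s ∈ S ↔ Ch p s) {x : G}
    (hx : x ∈ centralizer {u}) (hxu : ∀ N : Subgroup G, x ∈ N → u ∈ N) (Θ : Subgroup G → ℂ)
    (h0 : ∀ N, x ∉ N → Θ N = 0) (h1 : ∀ N, Θ N = Θ (N ⊓ centralizer {u})) :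
    ∑ s ∈ S, (-1) ^ s.card * Θ (NS s) = 0 := by
  rw [← Finset.sum_filter_of_ne (p := fun s => x ∈ NS s)
    fun s _ h => by_contra fun h2 => h (by rw [h0 _ h2, mul_zero])]
  have key : ∀ s : Finset (Subgroup G),
      NS (insert (RR u s) s) ⊓ centralizer {u} = NS s ⊓ centralizer {u} := fun s =>
    Subgroup.ext fun g => and_congr_left fun hg => by
      change g ∈ NS _ ↔ g ∈ NS _
      rw [mem_NS, Finset.forall_mem_insert, ← mem_NS]
      exact and_iff_right_of_imp fun h => nrm_RR h (Or.inr hg)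
  have e1 : ∀ s : Finset (Subgroup G), RR u (insert (RR u s) s) = RR u s := fun s =>
    RR_congr (fun Q hQ => by
      rw [Finset.mem_insert, or_iff_right]
      rintro rfl
      exact hQ (mem_RR u s)) (le_antisymm (TT_le (by
        rw [Finset.forall_mem_insert]
        exact ⟨RR_le_TT u s, fun Q => le_TT⟩) (mem_TT u s))
      (TT_le (fun Q hQ => le_TT (Finset.mem_insert_of_mem hQ)) (mem_TT u _)))
  have e2 : ∀ s ∈ S.filter fun s => x ∈ NS s, RR u (s.erase (RR u s)) = RR u s := fun s hs => by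
    rw [Finset.mem_filter, hS] at hs
    exact RR_congr (fun Q hQ => by
      rw [Finset.mem_erase, and_iff_right]
      rintro rfl
      exact hQ (mem_RR u s)) (TT_erase hu hs.1 (hxu _ hs.2))
  refine Finset.sum_involution
    (fun s _ => if RR u s ∈ s then s.erase (RR u s) else insert (RR u s) s) ?_ ?_ ?_ ?_
  · intro s hs
    split_ifs with h
    · have h2 := key (s.erase (RR u s))
      rw [e2 s hs, Finset.insert_erase h] at h2
      rw [h1, h2, ← h1, ← Finset.card_erase_add_one h]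
      ring
    · rw [h1 (NS (insert _ _)), key, ← h1, Finset.card_insert_of_notMem h]
      ring
  · intro s _ _
    split_ifs with h
    · exact fun e => Finset.notMem_erase _ s (e.ge h)
    · exact fun e => h (e.le (Finset.mem_insert_self _ s))
  · intro s hs
    rw [Finset.mem_filter, hS] at hs ⊢
    split_ifs with h
    · exact ⟨⟨fun Q a R b => hs.1.1 Q (Finset.mem_of_mem_erase a) R (Finset.mem_of_mem_erase b),
        fun Q a => hs.1.2.1 Q (Finset.mem_of_mem_erase a), fun Q a R b =>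
        hs.1.2.2 Q (Finset.mem_of_mem_erase a) R (Finset.mem_of_mem_erase b)⟩,
        mem_NS.2 fun Q a => mem_NS.1 hs.2 Q (Finset.mem_of_mem_erase a)⟩
    · exact ⟨ch_insert hu hu1 hs.1 (hxu _ hs.2), ((key s).ge ⟨hs.2, hx⟩).1⟩
  · intro s hs
    by_cases h : RR u s ∈ s
    · rw [if_pos h, e2 s hs, if_neg (Finset.notMem_erase _ s), Finset.insert_erase h]
    · rw [if_neg h, e1, if_pos (Finset.mem_insert_self _ s), Finset.erase_insert h]

end Cfsg.Agent.KR
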