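import Cfsg.Agent.KR.A
import Cfsg.Agent.Block.Section
import Cfsg.Agent.BMod.Dict2
import Cfsg.Agent.BMod.Rank

/-! Local computation of block columns in subgroups. -/

set_option autoImplicit false

namespace Cfsg.Agent.KR

open Cfsg MonoidAlgebra Cfsg.Agent.BMod Cfsg.Agent.Block Cfsg.Agent.Char Cfsg.Agent.Transfer
  Cfsg.Agent.CharDeep

variable {p : ℕ} [hp : Fact p.Prime] {M : Ideal AlgInt} [PMod p M]

section
variable {H K : Type*} [Group H] [Group K] [Finite H] [Finite K]

theorem col_map (e : H ≃* K) (A : Set (IrrCharacter H)) (g h : H) :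
    col (mapIrr e '' A) (e g) (e h) = col A g h := by
  classical
  rw [col_apply, col_apply, ← (mapIrr e).sum_comp]
  refine Finset.sum_congr rfl fun χ _ => ?_
  rw [← map_inv, mapIrr_apply_apply, mapIrr_apply_apply]
  exact if_congr (mapIrr e).injective.mem_set_image rfl rfl

include p in
theorem lam_map (e : H ≃* K) (ξ : IrrCharacter H) {x : (F M)[K]} (hx : x ∈ Cen (F M) K) :
    lam M (mapIrr e ξ : K → ℂ) x = lam M (ξ : H → ℂ) (domCongr (F M) (F M) e.symm x) := by
  classical
  refine linear_eq_on_center (f := lam M (mapIrr e ξ : K → ℂ))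
    (g := lam M (ξ : H → ℂ) ∘ₗ (domCongr (F M) (F M) e.symm).toLinearMap) (fun k => ?_) hx
  have : domCongr (F M) (F M) e.symm (classSum (F M) ⊤ k) = classSum (F M) ⊤ (e.symm k) := by
    ext h
    simp only [coeff_domCongr, coeff_classSum_top, MulEquiv.symm_symm]
    exact if_congr ⟨fun h1 => by simpa using e.symm.toMonoidHom.map_isConj h1,
      fun h1 => by simpa using e.toMonoidHom.map_isConj h1⟩ rfl rfl
  change _ = lam M _ (domCongr (F M) (F M) e.symm _)
  rw [this, lam_classSum (mapIrr e ξ).2, lam_classSum ξ.2, centralChar_mapIrr]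

open Classical in
theorem count [Fintype H] {A : Set (IrrCharacter H)} (hA : IsBlockUnion M A) :
    (Nat.card H : ℂ) * ((Nat.card A : ℂ) - blockRank p A) =
      ∑ x : H, if p ∣ orderOf x then col A x x else 0 := by
  have h1 : ∀ x : H, (if p ∣ orderOf x then col A x x else 0) = ∑ χ : IrrCharacter H,
      if χ ∈ A then (if p ∣ orderOf x then (χ : H → ℂ) x * (χ : H → ℂ) x⁻¹ else 0) else 0 :=
    fun x => by rw [col_apply]; split_ifs <;> simp
  rw [Finset.sum_congr rfl fun x _ => h1 x, Finset.sum_comm, blockRank_eq_sum hA, card_eq_filter,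
    Finset.card_filter, Nat.cast_sum, ← Finset.sum_sub_distrib, Finset.mul_sum]
  refine Finset.sum_congr rfl fun χ _ => ?_
  split_ifs with h
  · have h2 := χ.2.classInner_self
    rw [classInner_eq_sum_inv _ (irr_gen χ)] at h2
    rw [ctr_eq_sum _ (irr_gen χ), Nat.cast_one, ← h2, ← mul_sub, ← mul_assoc,
      mul_inv_cancel₀ natCard_cast_ne_zero, one_mul, ← Finset.sum_sub_distrib]
    refine Finset.sum_congr rfl fun x _ => ?_
    split_ifs <;> simp
  · simp

end

variable {G : Type*} [Group G] [Finite G]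

include p in
theorem corr_map {N K : Subgroup G} {C : Subgroup N} (e : C ≃* K)
    (he : ∀ c, (e c : G) = (c : N)) (b : Set (IrrCharacter G))
    (hd : ∀ β : Set (IrrCharacter C), IsPBlock M β → InducedBlockDefined M C β) :
    corr M K b = mapIrr e '' corr M C (corr M N b) := by
  ext ξ
  obtain ⟨ξ, rfl⟩ := (mapIrr e).surjective ξ
  obtain ⟨β, hβ⟩ := hd _ (isPBlock_blockOf ξ)
  obtain ⟨ψ, hψ⟩ := IsPBlock.nonempty hβ.2.1
  rw [(mapIrr e).injective.mem_set_image,
    mem_corr_iff isBlockUnion_corr hβ (mem_blockOf_self ξ)]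
  have h1 : lamS M K (mapIrr e ξ) (eB M b) = lamS M N ψ (eB M b) := by
    rw [lamS_apply, lam_map (p := p) e ξ (resA_mem_center (eB_mem_fix b K)), lamS_apply,
      ← IsInducedBlock.lamS_eq hβ (mem_blockOf_self ξ) hψ (resA_mem_center (eB_mem_fix b N)),
      lamS_apply]
    congr 1
    ext c
    simp [he]
  change lamS M K _ _ = 1 ↔ _
  rw [h1]
  exact ⟨fun h φ hφ => isBlockUnion_corr ψ h φ (IsPBlock.sameBlock hβ.2.1 hψ hφ), fun h => h hψ⟩

open Classical in
variable (M) in
/-- The diagonal column of the blocks of `N` corresponding to `b`. -/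
noncomputable def Th (b : Set (IrrCharacter G)) (x : G) (N : Subgroup G) : ℂ :=
  if h : x ∈ N then col (corr M N b) ⟨x, h⟩ ⟨x, h⟩ else 0

theorem Th_loc (b : Set (IrrCharacter G)) {x u : G} (hx : IsPPart p x u) (N : Subgroup G) :
    Th M b x N = Th M b x (N ⊓ Subgroup.centralizer {u}) := by
  have hc : x ∈ Subgroup.centralizer {u} :=
    Subgroup.mem_centralizer_singleton_iff.2 (IsPPart.commute hx).eq.symm
  by_cases h : x ∈ N
  swap
  · rw [Th, Th, dif_neg h, dif_neg fun h' => h h'.1]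
  have hu := IsPPart.mem hx h
  let e : Subgroup.centralizer ({⟨u, hu⟩} : Set N) ≃* ↥(N ⊓ Subgroup.centralizer {u}) :=
    { toFun := fun c => ⟨c, c.1.2, Subgroup.mem_centralizer_singleton_iff.2
        (congrArg Subtype.val (Subgroup.mem_centralizer_singleton_iff.1 c.2))⟩
      invFun := fun c => ⟨⟨c, c.2.1⟩, Subgroup.mem_centralizer_singleton_iff.2
        (Subtype.ext (Subgroup.mem_centralizer_singleton_iff.1 c.2.2))⟩
      left_inv := fun _ => rfl
      right_inv := fun _ => rfl
      map_mul' := fun _ _ => rfl }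
  have hx' : IsPPart p (⟨x, h⟩ : N) ⟨u, hu⟩ := IsPPart.of_coe hx
  rw [Th, Th, dif_pos h, dif_pos ⟨h, hc⟩, corr_map (p := p) e (fun _ => rfl) b
    fun _ => inducedBlockDefined_centralizer (IsPPart.orderOf_eq hx')]
  exact (col_section isBlockUnion_corr (g := e.symm ⟨x, h, hc⟩) (h := e.symm ⟨x, h, hc⟩)
    hx' hx').trans (col_map e _ _ _).symm

theorem Th_top {b : Set (IrrCharacter G)} (hb : IsBlockUnion M b) {x u : G} (hx : IsPPart p x u) :
    Th M b x ⊤ = col b x x := by
  have hc : x ∈ Subgroup.centralizer {u} :=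
    Subgroup.mem_centralizer_singleton_iff.2 (IsPPart.commute hx).eq.symm
  rw [Th_loc b hx, top_inf_eq, Th, dif_pos hc]
  exact (col_section hb (g := ⟨x, hc⟩) (h := ⟨x, hc⟩) hx hx).symm

open Classical in
theorem count_sub [Fintype G] (b : Set (IrrCharacter G)) (N : Subgroup G) :
    (Nat.card N : ℂ) * ((Nat.card (corr M N b) : ℂ) - blockRank p (corr M N b)) =
      ∑ x : G, if p ∣ orderOf x then Th M b x N else 0 := by
  rw [count isBlockUnion_corr, ← Finset.sum_subtype_of_mem (p := (· ∈ N)) (s := Finset.univ.filter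
    (· ∈ N)) (fun x => if p ∣ orderOf x then Th M b x N else 0) (by simp) |>.trans
    (Finset.sum_filter_of_ne fun x _ h => by_contra fun h' => h (by simp [Th, h']))]
  refine Finset.sum_congr (by ext; simp) fun x _ => ?_
  rw [Subgroup.orderOf_coe, Th, dif_pos x.2]

include p in
theorem ind_eq_corr {b : Set (IrrCharacter G)} (hb : IsPBlock M b) {N : Subgroup G}
    (hd : ∀ β : Set (IrrCharacter N), IsPBlock M β → InducedBlockDefined M N β) :
    {ψ : IrrCharacter N | ∃ β, ψ ∈ β ∧ IsInducedBlock M N β b} = corr M N b := by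
  ext ψ
  refine ⟨fun ⟨β, h1, h2⟩ => IsInducedBlock.lamS_eB h2 h1, fun h => ?_⟩
  obtain ⟨B, hB⟩ := hd _ (isPBlock_blockOf ψ)
  obtain ⟨χ, hχ⟩ := IsPBlock.nonempty hB.2.1
  have h1 := (mem_corr_iff (IsPBlock.isBlockUnion hb) hB (mem_blockOf_self ψ)).1 h
  exact ⟨_, mem_blockOf_self ψ, IsPBlock.eq_of_mem hB.2.1 hb hχ (h1 hχ) ▸ hB⟩

end Cfsg.Agent.KR
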